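import Cfsg.Agent.CA.Alt
import Cfsg.Agent.XL.SE

/-! # The centralizer `7 × A₇` -/

set_option autoImplicit false

namespace Cfsg.Agent.CA

open Cfsg Cfsg.Agent.GT Cfsg.Agent.XL Subgroup MulAction Function

variable {G : Type*} [Group G]

theorem prod_inj {S A : Type*} [Group S] [Group A] {φ : S →* G} {α : A →* G} (hφ : Injective φ) (hα : Injective α)
    (hc : ∀ s a, Commute (φ s) (α a)) (hZ : center A = ⊥) : Injective (φ.noncommCoprod α hc) := by
  refine (MonoidHom.noncommCoprod_injective _ _ _).2 ⟨hφ, hα, disjoint_def.2 ?_⟩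
  rintro _ ⟨s, rfl⟩ ⟨a, e⟩
  rw [← e, mem_bot.1 (hZ ▸ mem_center_iff.2 fun b => hα (by rw [map_mul, map_mul, e, (hc s b).eq]) : a ∈ ⊥), map_one]

theorem no_odd15 (D : Subgroup (alternatingGroup (Fin 7))) (ho : Odd (Nat.card D)) : ¬ 15 ∣ Nat.card D := fun h => by
  obtain ⟨R, hR⟩ := exists_hall (M := D) {3, 5} (PF.odd_order_solvable ho)
  have a := hR.dvd_card (n := 15) (fun r hr e => by
    rcases (Nat.Prime.dvd_mul hr (m := 3) (n := 5)).1 e with e | e
    · simp [(Nat.prime_dvd_prime_iff_eq hr Nat.prime_three).1 e]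
    · simp [(Nat.prime_dvd_prime_iff_eq hr Nat.prime_five).1 e]) h
  have b : Nat.card R ∣ 45 := (Nat.coprime_of_dvd (n := 56) fun k hk e => by
    rcases hR.isPi k hk e with rfl | rfl <;> decide).dvd_of_dvd_mul_left ((card_subgroup_dvd_card R).trans card_A7.dvd)
  haveI := Fact.mk Nat.prime_five
  haveI := Fact.mk Nat.prime_three
  let P : Sylow 5 R := default
  obtain ⟨n, hn⟩ := IsPGroup.iff_card.1 P.2
  have i := (P : Subgroup R).card_mul_index
  have k := P.not_dvd_index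
  have n1 : n = 1 := by
    have : ¬ 5 ^ 2 ∣ 5 ^ n := fun e => absurd (e.trans (hn ▸ (card_subgroup_dvd_card _).trans b)) (by decide)
    rw [Nat.pow_dvd_pow_iff_le_right (by decide)] at this
    have : n ≠ 0 := fun e => k (by rw [hn, e, pow_zero, one_mul] at i; exact i ▸ Dvd.dvd.trans (by decide) a)
    omega
  rw [n1, pow_one] at hn
  have m : Nat.card (Sylow 5 R) = 1 := by
    have k1 : Nat.card (Sylow 5 R) ∣ 9 := P.card_dvd_index.trans
      (Nat.dvd_of_mul_dvd_mul_left (k := 5) (by decide) (by rw [hn] at i; exact i ▸ b))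
    have k2 : Nat.card (Sylow 5 R) % 5 = 1 := card_sylow_modEq_one 5 R
    have := Nat.le_of_dvd (by decide) k1
    interval_cases Nat.card (Sylow 5 R) <;> omega
  haveI := (Nat.card_eq_one_iff_unique.1 m).1
  haveI := P.normal_of_subsingleton
  haveI := isCyclic_of_prime_card hn
  obtain ⟨x, hx⟩ := exists_prime_orderOf_dvd_card' (G := R) 3 (Dvd.dvd.trans (by decide) a)
  obtain ⟨y, hy⟩ := exists_prime_orderOf_dvd_card' (G := P) 5 hn.symm.dvd
  have h4 : MulAut.conjNormal (H := (P : Subgroup R)) x = 1 := by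
    have k1 := orderOf_map_dvd (MulAut.conjNormal (H := (P : Subgroup R))) x
    have k2 := orderOf_dvd_natCard (MulAut.conjNormal (H := (P : Subgroup R)) x)
    rw [IsCyclic.card_mulAut, hn, Nat.totient_prime Nat.prime_five] at k2
    exact orderOf_eq_one_iff.1 (Nat.eq_one_of_dvd_coprimes (by decide : Nat.Coprime 3 (5 - 1)) (hx ▸ k1) k2)
  have c : Commute x y.1 := mul_inv_eq_iff_eq_mul.1 (congrArg (fun f : MulAut (P : Subgroup R) => (f y).1) h4)
  refine not_fifteen (by simp) (x * y.1).1.1 ?_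
  rw [orderOf_coe, orderOf_coe, c.orderOf_mul_eq_mul_orderOf_of_coprime, hx, orderOf_coe, hy]
  rw [hx, orderOf_coe, hy]; decide

theorem conj7 {a : alternatingGroup (Fin 7)} (h : a * a = 1) (h1 : a ≠ 1) : IsConj (cy 2 * cy 3) a := by
  refine inv_conj (by decide +kernel) h ?_
  have := inv_supp h h1
  have := Finset.card_le_univ a.1.support
  rw [Fintype.card_fin] at this
  rw [show (cy 2 * cy 3 : alternatingGroup (Fin 7)).1.support.card = 4 by decide +kernel]
  omega

theorem z7_sq : ∀ s : Multiplicative (ZMod 7), s * s = 1 → s = 1 := by decide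

theorem cj_sq {t : G} (h : t * t = 1) (g : G) : g⁻¹ * t * g * (g⁻¹ * t * g) = 1 := by
  rw [show g⁻¹ * t * g * (g⁻¹ * t * g) = g⁻¹ * (t * t) * g by group, h]; simp

theorem cj_ne {t : G} (h : t ≠ 1) (g : G) : g⁻¹ * t * g ≠ 1 := fun e =>
  h (by rw [show t = g * (g⁻¹ * t * g) * g⁻¹ by group, e]; simp)

theorem absC [Finite G] {β : alternatingGroup (Fin 7) →* G} (hβ : Injective β) {v : G} (hv : orderOf v = 7)
    (hc : ∀ a, Commute v (β a)) (h : C1[β (cy 2 * cy 3)] ⊓ C1[v] ≤ zpowers v ⊔ β.range) :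
    Nonempty (centralizer (zpowers v : Set G) ≃* Multiplicative (ZMod 7) × alternatingGroup (Fin 7)) := by
  haveI : Fact (Nat.Prime 7) := ⟨by norm_num⟩
  let e : Multiplicative (ZMod 7) ≃* zpowers v := mulEquivOfPrimeCardEq (p := 7) (by simp) (by simp [hv])
  let φ := (zpowers v).subtype.comp e.toMonoidHom
  have hr : φ.range = zpowers v := by
    rw [MonoidHom.range_comp, MonoidHom.range_eq_top.2 e.surjective, ← MonoidHom.range_eq_map, range_subtype]
  have hk : ∀ s a, Commute (φ s) (β a) := fun s a => (comm_zp (hc a).symm (e s).2).symm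
  let ψ := φ.noncommCoprod β hk
  have hψ : Injective ψ := prod_inj (φ := φ) ((subtype_injective _).comp e.injective) hβ hk
    (alternatingGroup.center_eq_bot (by simp))
  have hH : ψ.range = zpowers v ⊔ β.range := by rw [MonoidHom.noncommCoprod_range, hr]
  have e1 : ∀ a, ψ (1, a) = β a := fun a => by simp [ψ]
  rw [← hH] at h
  have hb : ∀ a, β a ∈ ψ.range := fun a => ⟨_, e1 a⟩
  have hi : ∀ t ∈ ψ.range, t * t = 1 → t ≠ 1 → ∃ k ∈ ψ.range, t = k * β (cy 2 * cy 3) * k⁻¹ := by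
    rintro _ ⟨⟨s, a⟩, rfl⟩ t2 t1
    have q := hψ (a₂ := 1) (by rw [map_mul, t2, map_one])
    obtain rfl : s = 1 := z7_sq s (congrArg Prod.fst q)
    obtain ⟨c, hc⟩ := isConj_iff.1 (conj7 (a := a) (congrArg Prod.snd q) fun e => t1 (by rw [e1, e, map_one]))
    exact ⟨_, hb c, by rw [e1, ← hc, map_mul, map_mul, map_inv]⟩
  have hl : ψ.range ≤ C1[v] := hH ▸ sup_le (zpowers_le.2 (self_mem_cent1 v)) (by
    rintro _ ⟨a, rfl⟩; exact mem_cent1.2 (hc a).symm.eq)
  have t2 : β (cy 2 * cy 3) * β (cy 2 * cy 3) = 1 := by rw [← map_mul, ← map_one β]; congr 1; decide +kernel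
  have t1 : β (cy 2 * cy 3) ≠ 1 := fun e => absurd (hβ (e.trans (map_one β).symm)) (by decide +kernel)
  have u : UF C1[v] ψ.range (β (cy 2 * cy 3)) := ⟨hl, hb _, t2, t1, fun g hg q => by
    obtain ⟨k, hk, e⟩ := hi _ q (cj_sq t2 g) (cj_ne t1 g)
    refine (mul_mem_cancel_right hk).1 (h ⟨mem_cent1.2 ?_, mul_mem hg (hl hk)⟩)
    rw [mul_assoc, mul_inv_eq_iff_eq_mul.1 e.symm]; group⟩
  rcases u.se hi with q | ⟨D, d1, d2, d3⟩
  · exact ⟨(MulEquiv.subgroupCongr ((cent_zpowers v).trans (le_antisymm q hl))).trans (MonoidHom.ofInjective hψ).symm⟩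
  have c1 : Nat.card (D.comap ψ) = Nat.card D := by
    rw [← card_map_of_injective hψ, map_comap_eq_self d1]
  refine absurd ?_ (no_odd15 ((D.comap ψ).map (MonoidHom.snd _ _)) (d2.of_dvd_nat (c1 ▸ card_map_dvd _ _)))
  have c2 : Nat.card D ∣ 7 * Nat.card ((D.comap ψ).map (MonoidHom.snd _ _)) := by
    have := card_dvd_of_le (show D.comap ψ ≤ (⊤ : Subgroup _).prod ((D.comap ψ).map (MonoidHom.snd _ _)) from
      fun x hx => ⟨trivial, x, hx, rfl⟩)
    rwa [c1, Nat.card_congr (Subgroup.prodEquiv _ _).toEquiv, Nat.card_prod, card_top, Nat.card_congr Multiplicative.toAdd,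
      Nat.card_zmod] at this
  have c3 : (C1[(cy 2 * cy 3 : alternatingGroup (Fin 7))]).index ∣ (C1[β (cy 2 * cy 3)]).relIndex ψ.range := by
    rw [← index_comap, ← index_comap_of_surjective (f := MonoidHom.snd (Multiplicative (ZMod 7)) _) _ Prod.snd_surjective]
    refine index_dvd_of_le fun x hx => mem_cent1.2 (congrArg Prod.snd (hψ (a₁ := x * (1, _)) (a₂ := (1, _) * x) ?_))
    rw [map_mul, map_mul, e1]; exact mem_cent1.1 hx
  obtain ⟨m, hm⟩ := card_cent7
  have c4 := (C1[(cy 2 * cy 3 : alternatingGroup (Fin 7))]).card_mul_index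
  rw [card_A7] at c4
  refine (by decide : Nat.Coprime 15 7).dvd_of_dvd_mul_left (Dvd.dvd.trans ?_ (c3.trans (d3.trans c2)))
  refine (by decide : Nat.Coprime 15 16).dvd_of_dvd_mul_left (Nat.dvd_of_mul_dvd_mul_left (k := 3) (by decide) ?_)
  rw [← mul_assoc, show 3 * 16 = 48 from rfl, hm, mul_right_comm, c4]
  exact Dvd.dvd.mul_right (by decide) _

end Cfsg.Agent.CA
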