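import Cfsg.Agent.CA.N3
import Cfsg.Agent.CW.T0

/-! # Transfer of the subgroups `7 × A₇` and `S₃ × A₉` from the model -/

set_option autoImplicit false
set_option maxRecDepth 100000

namespace Cfsg.Agent.CA

open Cfsg Cfsg.Spor Cfsg.Agent.GT Cfsg.Agent.TT Cfsg.Agent.TC Cfsg.Agent.XL Cfsg.Agent.CW Cfsg.Agent.CoS Subgroup Function

variable {G : Type*} [Group G] {K T : Subgroup (Co1 × G)} {Q : Subgroup G} {z g t v w : G}

/-- the graphs over the centralizers of the two involutions -/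
structure IFc (K T : Subgroup (Co1 × G)) (z t v w : G) : Prop where
  kz : KZ K (z0, z)
  kt : KZ T (t0, t)
  tK : (t0, t) ∈ K
  KT : ∀ p ∈ K, p.1 ∈ C1[t0] → p ∈ T
  vT : (v0, v) ∈ T
  wT : (w0, w) ∈ T
  cv : ∀ p ∈ K, p.1 ∈ A7 → Commute p.2 v
  cw : ∀ p ∈ K, p.1 ∈ A9 → Commute p.2 w
  j1 : ∀ y, (z0 * t0, y) ∈ K → ¬ IsConj z y
  j2 : ∀ y, (z0 * t0 * uu, y) ∈ K → ¬ IsConj z y
  j3 : ∀ y, (t0 * uu, y) ∈ K → ¬ IsConj t y

theorem xx_rel : (∀ j < 7, xx (j + 1) ^ 3 = 1) ∧ ∀ j < 7, ∀ i < j, (xx (j + 1) * xx (i + 1)) ^ 2 = 1 := by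
  simp only [← mt_inj.eq_iff, pow_succ, pow_zero, one_mul, mt_mul, mt_one, xx, mt_al vB]
  decide +kernel

theorem A9_z : A9 ≤ C1[z0] := cen vB mt_z0 (by decide +kernel)

theorem A9_w : A9 ≤ C1[w0] := cen vB (mt_al vB 13) (by decide +kernel)

theorem A7_v : A7 ≤ C1[v0] := cen vB (mt_al vB 12) (by decide +kernel)

theorem xx_A9 {i : ℕ} (h1 : 1 ≤ i) (h2 : i ≤ 7) : xx i ∈ A9 := Mb.of (by simp; omega)

theorem xx_A7 {i : ℕ} (h1 : 1 ≤ i) (h2 : i ≤ 5) : xx i ∈ A7 := Mb.of (by simp; omega)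

theorem ord_w0 : orderOf w0 = 3 := orderOf_eq_prime (mt_inj (by
  simp only [pow_succ, pow_zero, one_mul, mt_mul, mt_one, w0, mt_al vB]; decide +kernel))
  (ne_of_mt (by rw [w0, mt_al vB, mt_one]; decide +kernel))

theorem ord_v0 : orderOf v0 = 7 := haveI : Fact (Nat.Prime 7) := ⟨by norm_num⟩
  orderOf_eq_prime (mt_inj (by
    simp only [pow_succ, pow_zero, one_mul, mt_mul, mt_one, v0, mt_al vB]; decide +kernel))
    (ne_of_mt (by rw [v0, mt_al vB, mt_one]; decide +kernel))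

theorem zw0 : w0 * z0 * w0 = z0 := mt_inj (by simp only [mt_mul, w0, mt_al vB, mt_z0]; decide +kernel)

theorem exists_alt {n : ℕ} (h : KZ K (z0, z)) {B : Subgroup Co1} (hB : B ≤ C1[z0]) (h1 : ∀ i, 1 ≤ i → i ≤ n → xx i ∈ B)
    (h2 : ∀ {H : Subgroup Co1}, (∀ i, 1 ≤ i → i ≤ n → xx i ∈ H) → B ≤ H) (hn : 3 ≤ n) (h7 : n ≤ 7)
    (hom : ∀ {x : ℕ → Co1 × G}, (∀ j < n, x (j + 1) ^ 3 = 1) → (∀ j < n, ∀ i < j, (x (j + 1) * x (i + 1)) ^ 2 = 1) →
      ∃ φ : alternatingGroup (Fin (n + 2)) →* Co1 × G, ∀ k : Fin (n + 2), 2 ≤ k.1 → φ (cy k) = x (k - 1)) :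
    ∃ φ : alternatingGroup (Fin (n + 2)) →* Co1 × G, (∀ a, φ a ∈ K) ∧ ((MonoidHom.fst _ _).comp φ).range = B ∧
      Injective ((MonoidHom.snd _ _).comp φ) ∧ ∀ (k : Fin (n + 2)) i, k.1 = i + 2 → (φ (cy k)).1 = xx (i + 1) := by
  have : ∀ i, ∃ y, 1 ≤ i → i ≤ n → (xx i, y) ∈ K := fun i => by
    by_cases e : 1 ≤ i ∧ i ≤ n
    · exact (h.fst _ (hB (h1 i e.1 e.2))).imp fun _ a _ _ => a
    · exact ⟨1, fun a b => absurd ⟨a, b⟩ e⟩
  choose y hy using this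
  obtain ⟨φ, hφ⟩ := hom (x := fun i => (xx i, y i))
    (fun j hj => h.gr _ (pow_mem (hy _ (by omega) hj) 3) (xx_rel.1 j (by omega)))
    fun j hj i hi => h.gr _ (pow_mem (mul_mem (hy _ (by omega) hj) (hy _ (by omega) (by omega))) 2)
      (xx_rel.2 j (by omega) i hi)
  have k : ∀ {H : Subgroup (Co1 × G)}, (∀ i, 1 ≤ i → i ≤ n → (xx i, y i) ∈ H) → ∀ a, φ a ∈ H := fun {H} q a =>
    (cy_top (H := H.comap φ) fun k k0 k1 => by
      have h0 : k.1 ≠ 0 := Fin.val_ne_of_ne k0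
      have h1 : k.1 ≠ 1 := Fin.val_ne_of_ne k1
      have := k.2
      rw [mem_comap, hφ k (by omega)]
      exact q _ (by omega) (by omega)).ge (mem_top a)
  refine ⟨φ, k hy, le_antisymm ?_ (h2 fun i a b => ⟨cy ⟨i + 1, by omega⟩, congrArg Prod.fst (hφ _ (by simpa))⟩), ?_,
    fun k i hk => by rw [hφ k (by omega), show k.1 - 1 = i + 1 by omega]⟩
  · rintro _ ⟨a, rfl⟩
    exact k (H := B.comap (MonoidHom.fst _ _)) h1 a
  haveI := alternatingGroup.isSimpleGroup (α := Fin (n + 2)) (by simpa)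
  refine (MonoidHom.ker_eq_bot_iff _).1 ((IsSimpleGroup.eq_bot_or_eq_top_of_normal _ inferInstance).resolve_right
    fun e => ?_)
  have := congrArg Prod.fst ((hφ ⟨2, by omega⟩ le_rfl).symm.trans (h.gr' _ (k hy _) (e.ge (mem_top _))))
  exact absurd (CX.ord3.symm.trans (orderOf_eq_one_iff.2 (show xx 1 = 1 from this))) (by decide)

theorem IFc.pull (h : IFc K T z t v w) {A : Type*} [Group A] {φ : A →* Co1 × G} (hK : ∀ a, φ a ∈ K) {u0 : Co1} {u : G}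
    (hu : (u0, u) ∈ T) (hc : ((MonoidHom.fst _ _).comp φ).range ≤ C1[u0])
    (hI : C1[t0] ⊓ C1[u0] ≤ zpowers u0 ⊔ ((MonoidHom.fst _ _).comp φ).range) :
    C1[t] ⊓ C1[u] ≤ zpowers u ⊔ ((MonoidHom.snd _ _).comp φ).range := fun x hx => by
  obtain ⟨c, e⟩ := h.kt.snd x hx.1
  obtain ⟨_, ⟨i, rfl⟩, _, ⟨a, rfl⟩, q⟩ := (mem_sup_of_le_norm' (le_norm_of_cent (cent_zpowers u0 ▸ hc))).1
    (hI ⟨h.kt.c1 e, mem_cent1.2 (congrArg Prod.fst (h.kt.comm' e hu (mem_cent1.1 hx.2)))⟩)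
  have m := h.KT _ (hK a) ((mul_mem_cancel_left (zpow_mem (h.kt.c1 hu) i)).1 (q ▸ h.kt.c1 e))
  rw [show x = u ^ i * (φ a).2 from congrArg Prod.snd (h.kt.gr.ext e (mul_mem (zpow_mem hu i) m) q)]
  exact mul_mem (mem_sup_left ⟨i, rfl⟩) (mem_sup_right ⟨a, rfl⟩)

theorem k8 (x : alternatingGroup (Fin 9)) (p : x * x = 1) (q : x.1.support.card = 8) :
    IsConj (cy 2 * cy 3 * (cy 5 * cy 7 * cy 6 * cy 8 * cy 5 * cy 7)) x :=
  inv_conj (by decide +kernel) p ((show _ = 8 by decide +kernel).trans q.symm)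

variable [Finite G]

theorem IFc.main7 (h : IFc K T z t v w) (i7 : C1[t0] ⊓ C1[v0] ≤ zpowers v0 ⊔ A7) : ∃ V : Subgroup G, Nat.card V = 7 ∧
    Nonempty (centralizer (V : Set G) ≃* Multiplicative (ZMod 7) × alternatingGroup (Fin 7)) := by
  have ov : orderOf v = 7 := (h.kt.ord h.vT).trans ord_v0
  obtain ⟨φ, a, b, c, d⟩ := exists_alt (n := 5) h.kz ((Mb.mono (by decide)).trans A9_z)
    (B := A7) (fun _ => xx_A7) (fun q => Mb.le fun i hi => by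
      rw [show al cB i = xx (i - 4) by rw [xx]; congr 1; simp at hi; omega]
      exact q _ (by simp at hi; omega) (by simp at hi; omega)) (by decide) (by decide) hom7
  have e : φ (cy 2 * cy 3) = (t0, t) := h.kz.gr.ext (a _) h.tK (by
    rw [map_mul, Prod.fst_mul, d 2 0 rfl, d 3 1 rfl, t0])
  refine ⟨_, (Nat.card_zpowers v).trans ov, absC c ov (fun x => (h.cv _ (a x) (b.le ⟨x, rfl⟩)).symm) ?_⟩
  rw [MonoidHom.comp_apply, e]
  exact h.pull a h.vT (b.le.trans A7_v) (by rwa [b])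

theorem IFc.main9 (l : LT Q z g 4 174182400) (h : IFc K T z t v w) (i9 : C1[t0] ⊓ C1[w0] ≤ zpowers w0 ⊔ A9) :
    ∃ W : Subgroup G, Nat.card W = 3 ∧
      Nonempty (normalizer (W : Set G) ≃* Equiv.Perm (Fin 3) × alternatingGroup (Fin 9)) := by
  have ow : orderOf w = 3 := (h.kt.ord h.wT).trans ord_w0
  obtain ⟨φ, a, b, c, d⟩ := exists_alt (n := 7) h.kz A9_z (fun _ => xx_A9) (fun q => Mb.le fun i hi => by
    rw [show al cB i = xx (i - 4) by rw [xx]; congr 1; simp at hi; omega]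
    exact q _ (by simp at hi; omega) (by simp at hi; omega)) (by decide) (by decide) hom9
  have e0 : (φ (cy 2 * cy 3)).1 = t0 := by rw [map_mul, Prod.fst_mul, d 2 0 rfl, d 3 1 rfl, t0]
  have e : φ (cy 2 * cy 3) = (t0, t) := h.kz.gr.ext (a _) h.tK e0
  have cz : ∀ x, Commute z (φ x).2 := fun x => (mem_cent1.1 (h.kz.c2 (a x))).symm
  have e1 : (φ (cy 2 * cy 3 * (cy 5 * cy 7 * cy 6 * cy 8 * cy 5 * cy 7))).1 = t0 * uu := by
    rw [map_mul, Prod.fst_mul, e0, uu, ← d 5 3 rfl, ← d 6 4 rfl, ← d 7 5 rfl, ← d 8 6 rfl]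
    simp only [map_mul, Prod.fst_mul]
  have kz : ∀ x y, IsConj x y → IsConj (z * (φ x).2) (z * (φ y).2) := fun x y q => by
    obtain ⟨c, rfl⟩ := isConj_iff.1 q
    exact isConj_iff.2 ⟨(φ c).2, by
      rw [map_mul, map_mul, map_inv, Prod.snd_mul, Prod.snd_mul, Prod.snd_inv, ← mul_assoc, ← mul_assoc, ← mul_assoc,
        (cz c).eq]⟩
  have zT : (z0, z) ∈ T := h.KT _ h.kz.mem (mem_cent1_comm.1 (h.kz.c1 h.tK))
  have m : ∀ x, (z0 * (φ x).1, z * (φ x).2) ∈ K := fun x => mul_mem h.kz.mem (a x)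
  have zw : w * z * w = z := congrArg Prod.snd (h.kt.gr.ext (p := (w0 * z0 * w0, w * z * w))
    (mul_mem (mul_mem h.wT zT) h.wT) zT zw0)
  have n : HN ((MonoidHom.snd _ _).comp φ) z w := ⟨c, l.zz, ow, eq_inv_of_mul_eq_one_right (by
    rw [← mul_assoc, ← mul_assoc, zw, mul_inv_cancel]), cz, fun x => (h.cw _ (a x) (b.le ⟨x, rfl⟩)).symm,
    ?_, fun x p q r => ?_, fun x p q r => ?_⟩
  · exact ⟨_, (Nat.card_zpowers w).trans ow, n.iso (n.cY (.of_card l.cQ') (fun x hx => mem_cent1.2 (l.zc x hx).symm.eq)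
      l.nQ l.cC)⟩
  · rw [MonoidHom.comp_apply, e]
    exact h.pull a h.wT (b.le.trans A9_w) (by rwa [b])
  · rcases supp9 p q with s | s
    · exact h.j1 _ (by have := m (cy 2 * cy 3); rwa [e0] at this) (r.trans (kz _ _ (conj9 p s)).symm)
    · exact h.j2 _ (by have := m (cy 2 * cy 3 * (cy 5 * cy 7 * cy 6 * cy 8 * cy 5 * cy 7)); rwa [e1, ← mul_assoc] at this)
        (r.trans (kz _ _ (k8 x p s)).symm)
  · rw [MonoidHom.comp_apply, e] at r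
    exact h.j3 (φ (cy 2 * cy 3 * (cy 5 * cy 7 * cy 6 * cy 8 * cy 5 * cy 7))).2 (by rw [← e1]; exact a _)
      (r.trans (((MonoidHom.snd _ _).comp φ).map_isConj (k8 x p q)).symm)

end Cfsg.Agent.CA
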