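import Cfsg.Agent.CA.C7
import Cfsg.Agent.XL.L3
import Cfsg.Agent.BS.ZStar
import Cfsg.Agent.TT.WordsData

/-! # The normalizer `S₃ × A₉` -/

set_option autoImplicit false

namespace Cfsg.Agent.CA

open Cfsg Cfsg.Agent.GT Cfsg.Agent.XL Cfsg.Agent.TT Subgroup MulAction Function

variable {G : Type*} [Group G]

theorem idx_mod [Finite G] {P : Type*} [Group P] [Finite P] (ψ : P →* G) {H L : Subgroup G} (hl : H ≤ L)
    (hψ : ∀ x, ψ x ∈ H) (hf : ∀ x, x ≠ 1 → ∀ g ∈ L, g⁻¹ * ψ x * g ∈ H → g ∈ H) :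
    Nat.card P ∣ H.relIndex L + (Nat.card P - 1) := by
  classical
  letI : MulAction P (L ⧸ H.subgroupOf L) := MulAction.compHom _ (ψ.codRestrict L fun x => hl (hψ x))
  haveI := Fintype.ofFinite P
  haveI := Fintype.ofFinite (L ⧸ H.subgroupOf L)
  have b := sum_card_fixedBy_eq_card_orbits_mul_card_group P (L ⧸ H.subgroupOf L)
  rw [← Finset.add_sum_erase _ _ (Finset.mem_univ 1), Finset.sum_congr rfl (g := fun _ => 1) fun x hx => ?_] at b
  · rw [Nat.card_eq_fintype_card (α := P)]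
    refine Dvd.intro_left _ (b.symm.trans ?_)
    rw [relIndex, index, Nat.card_eq_fintype_card]
    simp
  refine Fintype.card_eq_one_iff.2 ⟨⟨((1 : L) : L ⧸ H.subgroupOf L), QuotientGroup.eq.2 ?_⟩, fun ⟨c, hc⟩ => ?_⟩
  · simpa [mem_subgroupOf] using hψ x
  obtain ⟨g, rfl⟩ := QuotientGroup.mk_surjective c
  refine Subtype.ext (QuotientGroup.eq.2 ?_)
  have := QuotientGroup.eq.1 (show (g : L ⧸ H.subgroupOf L) = (⟨ψ x, hl (hψ x)⟩ * g : L) from hc.symm)
  simpa [mem_subgroupOf] using hf x (Finset.ne_of_mem_erase hx) g g.2 (by rw [mul_assoc]; exact this)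

/-- the local data around the element of order three -/
structure HN (α : alternatingGroup (Fin 9) →* G) (z w : G) : Prop where
  inj : Injective α
  zz : z * z = 1
  ow : orderOf w = 3
  zw : z * w * z⁻¹ = w⁻¹
  cz : ∀ a, Commute z (α a)
  cw : ∀ a, Commute w (α a)
  ct : C1[α (cy 2 * cy 3)] ⊓ C1[w] ≤ zpowers w ⊔ α.range
  j1 : ∀ a, a * a = 1 → a ≠ 1 → ¬ IsConj z (z * α a)
  j3 : ∀ a, a * a = 1 → a.1.support.card = 8 → ¬ IsConj (α (cy 2 * cy 3)) (α a)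

theorem supp9 {a : alternatingGroup (Fin 9)} (h : a * a = 1) (h1 : a ≠ 1) :
    a.1.support.card = 4 ∨ a.1.support.card = 8 := by
  have := inv_supp h h1
  have := Finset.card_le_univ a.1.support
  rw [Fintype.card_fin] at this
  omega

theorem conj9 {a : alternatingGroup (Fin 9)} (h : a * a = 1) (h1 : a.1.support.card = 4) : IsConj (cy 2 * cy 3) a :=
  inv_conj (by decide +kernel) h (h1.symm ▸ by decide +kernel)

namespace HN

variable {α : alternatingGroup (Fin 9) →* G} {z w x g : G} {a : alternatingGroup (Fin 9)} (h : HN α z w)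
include h

theorem tri (hx : x ∈ zpowers w) : x = 1 ∨ x = w ∨ x = w⁻¹ := by
  obtain ⟨k, rfl⟩ := mem_zpowers_iff.1 hx
  have e : w ^ (3 : ℤ) = 1 := by simpa [h.ow] using pow_orderOf_eq_one w
  rw [show w ^ k = w ^ (k % 3) from zpow_eq_zpow_emod k e]
  rcases (by omega : k % 3 = 0 ∨ k % 3 = 1 ∨ k % 3 = 2) with q | q | q <;> rw [q]
  exacts [.inl (zpow_zero w), .inr (.inl (zpow_one w)), .inr (.inr (eq_inv_of_mul_eq_one_left (by
    rw [← e]; group)))]

theorem sq1 (hx : x ∈ zpowers w) (e : x * x = 1) : x = 1 :=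
  orderOf_eq_one_iff.1 (Nat.eq_one_of_dvd_coprimes (by decide : Nat.Coprime 2 3)
    (orderOf_dvd_of_pow_eq_one (by rw [sq, e])) (h.ow ▸ orderOf_dvd_of_mem_zpowers hx))

theorem w1 : w ≠ 1 := fun e => by simpa [e] using h.ow

theorem zinv (hx : x ∈ zpowers w) : z * x * z⁻¹ = x⁻¹ := by
  obtain ⟨k, rfl⟩ := hx
  simp only [← conj_zpow, h.zw, inv_zpow]

theorem dec (hx : x ∈ zpowers w ⊔ α.range) : ∃ u ∈ zpowers w, ∃ a, x = u * α a := by
  obtain ⟨u, hu, _, ⟨a, rfl⟩, e⟩ := (mem_sup_of_le_norm' (le_norm_of_cent (by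
    rw [cent_zpowers]; rintro _ ⟨a, rfl⟩; exact mem_cent1.2 (h.cw a).symm.eq))).1 hx
  exact ⟨u, hu, a, e⟩

theorem cen (e : ∀ b, Commute (α a) (α b)) : a = 1 :=
  mem_bot.1 (alternatingGroup.center_eq_bot (α := Fin 9) (by simp) ▸
    mem_center_iff.2 fun b => h.inj (by rw [map_mul, map_mul, (e b).eq]) : a ∈ ⊥)

theorem inv (hx : x ∈ zpowers w ⊔ α.range) (e : x * x = 1) : ∃ a, a * a = 1 ∧ x = α a := by
  obtain ⟨u, hu, a, rfl⟩ := h.dec hx
  have c : ∀ b, Commute u (α b) := fun b => (comm_zp (h.cw b).symm hu).symm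
  rw [(c a).symm.mul_mul_mul_comm, ← map_mul] at e
  have := h.cen (a := a * a) fun b => eq_inv_of_mul_eq_one_right e ▸ ((c b).mul_left (c b)).inv_left
  rw [this, map_one, mul_one] at e
  exact ⟨a, this, by rw [h.sq1 hu e, one_mul]⟩

theorem le : zpowers w ⊔ α.range ≤ C1[w] :=
  sup_le (zpowers_le.2 (self_mem_cent1 w)) (by rintro _ ⟨a, rfl⟩; exact mem_cent1.2 (h.cw a).symm.eq)

theorem cen4 (e : a * a = 1) (s : a.1.support.card = 4) : C1[α a] ⊓ C1[w] ≤ zpowers w ⊔ α.range := fun x hx => by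
  obtain ⟨c, rfl⟩ := isConj_iff.1 (conj9 e s)
  have m : α c ∈ zpowers w ⊔ α.range := mem_sup_right ⟨c, rfl⟩
  have := h.ct (x := (α c)⁻¹ * x * α c) ⟨mem_conj.1 (by rw [conj_cent1]; simpa using hx.1),
    (C1[w]).mul_mem (mul_mem (inv_mem (h.le m)) hx.2) (h.le m)⟩
  rwa [mul_mem_cancel_right m, mul_mem_cancel_left (inv_mem m)] at this

theorem fix (e : a * a = 1) (s : a.1.support.card = 4) (hg : g ∈ C1[w])
    (q : g⁻¹ * α a * g ∈ zpowers w ⊔ α.range) : g ∈ zpowers w ⊔ α.range := by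
  obtain ⟨b, b2, hb⟩ := h.inv q (cj_sq (by rw [← map_mul, e, map_one]) g)
  have b1 : b ≠ 1 := fun k => cj_ne (t := α a) (fun k => by
    rw [h.inj (k.trans (map_one α).symm)] at s; simp at s) g (by rw [hb, k, map_one])
  rcases supp9 b2 b1 with k | k
  · obtain ⟨c, hc⟩ := isConj_iff.1 (inv_conj b2 e (k.trans s.symm))
    have m : α c ∈ zpowers w ⊔ α.range := mem_sup_right ⟨c, rfl⟩
    refine (mul_mem_cancel_right (inv_mem m)).1 (h.cen4 e s ⟨mem_cent1.2 ?_, (C1[w]).mul_mem hg (inv_mem (h.le m))⟩)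
    have := congrArg α hc
    rw [map_mul, map_mul, map_inv, ← hb] at this
    nth_rw 1 [← this]
    nth_rw 1 [← mul_inv_cancel_left g (α a * _)]
    group
  · exact absurd ((α.map_isConj (conj9 e s)).trans (isConj_iff.2 ⟨g⁻¹, by rw [inv_inv, hb]⟩)) (h.j3 b b2 k)

theorem zmem (hx : x ∈ zpowers w ⊔ α.range) (e : x ∈ C1[z]) : x ∈ α.range := by
  obtain ⟨u, hu, a, rfl⟩ := h.dec hx
  have k : u ∈ C1[z] := (mul_mem_cancel_right (mem_cent1.2 (h.cz a).symm.eq)).1 e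
  have := h.zinv hu
  rw [← mem_cent1.1 k, mul_inv_cancel_right] at this
  exact ⟨a, by rw [h.sq1 hu (mul_eq_one_iff_eq_inv.2 this), one_mul]⟩

theorem dich (hg : g ∈ N[zpowers w]) : g * w * g⁻¹ = w ∨ g * w * g⁻¹ = w⁻¹ :=
  (h.tri (conj_mem_of_mem_norm hg (mem_zpowers w))).resolve_left fun e => h.w1 (conj_eq_one_iff.1 e)

variable [Finite G] {Q : Subgroup G}

theorem cY (hQ : IsPGroup 2 Q) (hl : Q ≤ C1[z]) (hn : C1[z] ≤ N[Q]) (hc : Nat.card C1[z] = Nat.card Q * 174182400) :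
    C1[z] ⊓ C1[w] ≤ α.range := by
  have l : α.range ≤ C1[z] ⊓ C1[w] := by
    rintro _ ⟨a, rfl⟩; exact ⟨mem_cent1.2 (h.cz a).symm.eq, mem_cent1.2 (h.cw a).symm.eq⟩
  have cA : Nat.card α.range = 181440 := by rw [← card_A9]; exact Nat.card_congr (α.ofInjective h.inj).symm.toEquiv
  have b : C1[z] ⊓ C1[w] ⊓ Q = ⊥ := by_contra fun k => by
    have t2 : α (cy 2 * cy 3) * α (cy 2 * cy 3) = 1 := by rw [← map_mul, ← map_one α]; congr 1; decide +kernel
    obtain ⟨x, hx, x1⟩ := exists_ne_one_of_ne_bot (inf_cent_ne_bot_of_isPGroup Nat.prime_two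
      (hQ.to_le inf_le_right) (isPGroup_of_forall (H := zpowers (α (cy 2 * cy 3))) fun y hy => ⟨1, by
        rcases (mem_zpowers_of_sq t2).1 hy with rfl | rfl <;> simp [sq, t2, -map_mul]⟩)
      ((zpowers_le.2 (l ⟨_, rfl⟩)).trans (le_norm_inf le_normalizer (inf_le_left.trans hn))) k)
    obtain ⟨a, rfl⟩ := h.zmem (h.ct ⟨cent_zpowers (G := G) _ ▸ hx.2, hx.1.1.2⟩) hx.1.1.1
    haveI := alternatingGroup.isSimpleGroup (α := Fin 9) (by simp)
    rcases IsSimpleGroup.eq_bot_or_eq_top_of_normal (Q.comap α) ⟨fun n hn' c => by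
      simpa using conj_mem_of_mem_norm (hn (l ⟨c, rfl⟩).1) hn'⟩ with q | q
    · exact x1 (by rw [mem_bot.1 (q ▸ hx.1.2 : a ∈ ⊥), map_one])
    obtain ⟨n, e⟩ := IsPGroup.iff_card.1 hQ
    have := card_dvd_of_le (show α.range ≤ Q by rintro _ ⟨c, rfl⟩; exact (q ▸ mem_top c : c ∈ Q.comap α))
    rw [cA, e] at this
    exact absurd (Nat.prime_three.dvd_of_dvd_pow (Dvd.dvd.trans (by decide) this)) (by decide)
  have c := card_dvd_of_le (sup_le (inf_le_left (b := C1[w])) hl)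
  rw [card_sup_of_inf_eq_bot (.inl (inf_le_left.trans hn)) b, hc, mul_comm, Nat.mul_dvd_mul_iff_left (card_pos' Q),
    ← card_mul_relIndex l, cA, show 174182400 = 181440 * (64 * 15) from rfl, Nat.mul_dvd_mul_iff_left (by decide)] at c
  obtain ⟨ψ, hψ⟩ := exists_D8
  have d := idx_mod (α.comp ψ) l (fun x => ⟨_, rfl⟩) fun x x1 g hg q => by
    obtain ⟨k, k1, k2⟩ := hψ x x1
    refine h.zmem (h.fix k1 k2 hg.2 (mem_sup_right ?_)) hg.1
    have := pow_mem q (k.1 + 1)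
    nth_rw 2 [← inv_inv g] at this
    rwa [conj_pow, inv_inv, MonoidHom.comp_apply, ← map_pow] at this
  rw [DihedralGroup.nat_card] at d
  have := (Nat.Coprime.pow_right 6 (Nat.coprime_two_right.2 (Nat.odd_iff.2 (by omega)))).dvd_of_dvd_mul_left c
  have := Nat.le_of_dvd (by decide) this
  refine relIndex_eq_one.1 ?_
  interval_cases α.range.relIndex (C1[z] ⊓ C1[w]) <;> omega

theorem core (hY : C1[z] ⊓ C1[w] ≤ α.range) (hg : g ∈ N[zpowers w]) : z * (g * z * g⁻¹) ∈ zpowers w := by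
  have zN : z ∈ N[zpowers w] := mem_normalizer_of_conj_le (conj_le_iff_forall.2 fun x hx => h.zinv hx ▸ inv_mem hx)
  have aN : ∀ a, α a ∈ N[zpowers w] := fun a =>
    cent_le_norm _ (cent_zpowers w ▸ h.le (mem_sup_right ⟨a, rfl⟩))
  have k : z * (g * z * g⁻¹) ∈ piCoreOf {2}ᶜ N[zpowers w] :=
    ⟨_, BS.zstar (t := (⟨z, zN⟩ : N[zpowers w])) (Subtype.ext h.zz) (fun c hc => ?_) ⟨g, hg⟩, rfl⟩
  · have od : ¬ 2 ∣ Nat.card (piCoreOf {2}ᶜ N[zpowers w]) := fun e => piCoreOf_isPi _ _ 2 Nat.prime_two e rfl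
    have o1 : piCoreOf {2}ᶜ N[zpowers w] ≤ C1[w] := fun x hx => by
      rcases h.dich (piCoreOf_le _ _ hx) with e | e
      · exact mem_cent1.2 (mul_inv_eq_iff_eq_mul.1 e)
      refine zpowers_le.2 (mem_cent1.2 (mul_inv_eq_iff_eq_mul.1 ?_)) (mem_zpowers_pow_iff (k := 2).2
        ((Nat.prime_two.coprime_iff_not_dvd).2 fun q => od (q.trans (Subgroup.orderOf_dvd_natCard _ hx))))
      rw [show x ^ 2 * w * (x ^ 2)⁻¹ = x * (x * w * x⁻¹) * x⁻¹ by simp [sq, mul_assoc], e, ← conj_inv, e, inv_inv]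
    have t2 : ∀ a, a * a = 1 → α a * α a = 1 := fun a e => by rw [← map_mul, e, map_one]
    have s1 := t2 (cy 2 * cy 3) (by decide +kernel)
    have s2 := t2 (cy 3 * cy 2) (by decide +kernel)
    have s3 : Commute (α (cy 2 * cy 3)) (α (cy 3 * cy 2)) := Commute.map (show _ * _ = _ * _ by decide +kernel) α
    have o2 : piCoreOf {2}ᶜ N[zpowers w] ≤ zpowers w ⊔ α.range := by
      refine coprime_abelian_gen_cent1 (VV_comm' s3) (VV_nc s1 s2 s3 ?_ ?_ (h.inj.ne (by decide +kernel)))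
        (le_norm_piCoreOf (le_trans ?_ le_normalizer)) ?_ fun v hv v1 x hx => ?_
      · exact map_one α ▸ h.inj.ne (by decide +kernel)
      · exact map_one α ▸ h.inj.ne (by decide +kernel)
      · exact (closure_le _).2 (by rintro _ (rfl | rfl) <;> exact aN _)
      · obtain ⟨n, e⟩ := IsPGroup.iff_card.1 (VV_pgroup s1 s2 s3)
        exact e ▸ ((Nat.prime_two.coprime_iff_not_dvd).2 od).symm.pow_right n
      rcases (mem_VV s1 s2 s3).1 hv with rfl | rfl | rfl | rfl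
      · exact absurd rfl v1
      · exact h.ct ⟨hx.2, o1 hx.1⟩
      · exact h.cen4 (by decide +kernel) (by decide +kernel) ⟨hx.2, o1 hx.1⟩
      · exact h.cen4 (a := cy 3 * cy 2 * (cy 2 * cy 3)) (by decide +kernel) (by decide +kernel)
          ⟨by rw [map_mul]; exact hx.2, o1 hx.1⟩
    obtain ⟨u, hu, a, e⟩ := h.dec (o2 k)
    haveI := alternatingGroup.isSimpleGroup (α := Fin 9) (by simp)
    rcases IsSimpleGroup.eq_bot_or_eq_top_of_normal ((piCoreOf {2}ᶜ N[zpowers w]).comap α) ⟨fun n hn c => by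
      simpa using conj_mem_of_mem_norm (self_le_norm_piCoreOf _ _ (aN c)) hn⟩ with q | q
    · have c : ∀ b, Commute u (α b) := fun b => (comm_zp (h.cw b).symm hu).symm
      have m := le_cent_of_norm_of_inf_eq_bot (o2.trans (sup_le (le_norm_of_cent (le_cent_symm (cent_zpowers w ▸
        le_sup_right.trans h.le))) le_normalizer)) (le_norm_piCoreOf (by rintro _ ⟨b, rfl⟩; exact le_normalizer (aN b)))
        (eq_bot_iff.2 (by rintro _ ⟨k, b, rfl⟩; rw [mem_bot.1 (q ▸ k : b ∈ ⊥), map_one]; exact one_mem _)) k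
      rw [e] at m ⊢
      rwa [h.cen (a := a) fun b => by simpa using (c b).inv_left.mul_left (m _ ⟨b, rfl⟩).symm, map_one, mul_one]
    · exact absurd (Subgroup.orderOf_dvd_natCard _ (show α _ ∈ piCoreOf {2}ᶜ N[zpowers w] from
        (q ▸ mem_top _ : cy 2 * cy 3 ∈ (piCoreOf {2}ᶜ N[zpowers w]).comap α)))
        (by rwa [orderOf_eq_two s1 (map_one α ▸ h.inj.ne (by decide +kernel))])
  obtain ⟨c, hc'⟩ := c
  have e : z * (c * z * c⁻¹) = c * z * c⁻¹ * z := congrArg Subtype.val hc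
  have i := h.zinv (conj_mem_of_mem_norm (inv_mem hc') (mem_zpowers w))
  obtain ⟨a, ha⟩ := hY (x := z * (c * z * c⁻¹)) ⟨mem_cent1.2 (by rw [mul_assoc, ← e]), mem_cent1.2 (mul_inv_eq_iff_eq_mul.1 (by
    rw [show z * (c * z * c⁻¹) * w * (z * (c * z * c⁻¹))⁻¹ = z * (c * (z * (c⁻¹ * w * c⁻¹⁻¹) * z⁻¹) * c⁻¹) * z⁻¹ by
      group, i, show c * (c⁻¹ * w * c⁻¹⁻¹)⁻¹ * c⁻¹ = w⁻¹ by group, ← conj_inv, h.zw, inv_inv]))⟩
  have e2 : z * α a = c * z * c⁻¹ := by rw [ha, ← mul_assoc, h.zz, one_mul]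
  by_cases a1 : a = 1
  · exact Subtype.ext (by simpa [a1] using e2.symm)
  refine absurd (isConj_iff.2 ⟨c, e2.symm⟩) (h.j1 a (h.inj ?_) a1)
  rw [map_mul, map_one, ha]
  nth_rw 1 [e]
  rw [mul_assoc, ← mul_assoc z z, h.zz, one_mul, conj_mul, h.zz]; simp

theorem iso (hY : C1[z] ⊓ C1[w] ≤ α.range) :
    Nonempty (normalizer (zpowers w : Set G) ≃* Equiv.Perm (Fin 3) × alternatingGroup (Fin 9)) := by
  have zi : z⁻¹ = z := inv_eq_of_mul_eq_one_left h.zz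
  have w3 : w * w = w⁻¹ := eq_inv_of_mul_eq_one_left (by simpa [h.ow, pow_succ] using pow_orderOf_eq_one w)
  obtain ⟨φ, p1, p2⟩ := Wd.exists_hom_S3 (a := z) (b := z * w) h.zz (by
    rw [← mul_assoc]; nth_rw 2 [← zi]; rw [h.zw, inv_mul_cancel]) (by
    rw [← mul_assoc, h.zz, one_mul, mul_assoc, ← mul_assoc z z, h.zz, one_mul, mul_assoc, w3, ← h.zw, zi, ← mul_assoc,
      ← mul_assoc, h.zz, one_mul])
  have g : ∀ {K : Subgroup G}, z ∈ K → w ∈ K → φ.range ≤ K := fun a b => by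
    rw [MonoidHom.range_eq_map, ← Wd.closure_S3, MonoidHom.map_closure, closure_le]
    rintro _ ⟨_, rfl | rfl, rfl⟩
    exacts [p1 ▸ a, p2 ▸ mul_mem a b]
  have hk : ∀ s a, Commute (φ s) (α a) := fun s a =>
    mem_cent1.1 (g (mem_cent1.2 (h.cz a).eq) (mem_cent1.2 (h.cw a).eq) ⟨s, rfl⟩)
  have hψ := prod_inj (Wd.injective_S3 φ (by simpa [p1, p2] using h.w1)) h.inj hk
    (alternatingGroup.center_eq_bot (by simp))
  refine ⟨(MulEquiv.subgroupCongr ?_).trans (MonoidHom.ofInjective hψ).symm⟩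
  rw [MonoidHom.noncommCoprod_range]
  have zN : z ∈ N[zpowers w] := mem_normalizer_of_conj_le (conj_le_iff_forall.2 fun x hx => h.zinv hx ▸ inv_mem hx)
  refine le_antisymm (fun c hc => ?_) (sup_le (g zN (le_normalizer (mem_zpowers w)))
    (le_sup_right.trans (h.le.trans (cent_zpowers w ▸ cent_le_norm _))))
  have mz : z ∈ φ.range ⊔ α.range := mem_sup_left ⟨_, p1⟩
  have mw : zpowers w ≤ φ.range ⊔ α.range := zpowers_le.2 ((mul_mem_cancel_left mz).1 (mem_sup_left ⟨_, p2⟩))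
  have k := h.core hY hc
  generalize e : z * (c * z * c⁻¹) = u at k
  have u3 : u * u = u⁻¹ := eq_inv_of_mul_eq_one_left (by
    rw [← pow_three']; exact orderOf_dvd_iff_pow_eq_one.1 (h.ow ▸ orderOf_dvd_of_mem_zpowers k))
  have c1 : u⁻¹ * c ∈ C1[z] := mem_cent1.2 (mul_inv_eq_iff_eq_mul.1 (by
    rw [show u⁻¹ * c * z * (u⁻¹ * c)⁻¹ = u⁻¹ * z⁻¹ * (z * (c * z * c⁻¹)) * u by group, e, mul_assoc, u3, zi]
    nth_rw 1 [← h.zinv k]
    group))
  have c2 : u⁻¹ * c ∈ N[zpowers w] := mul_mem (inv_mem (le_normalizer k)) hc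
  refine (mul_mem_cancel_left (inv_mem (mw k))).1 ?_
  rcases h.dich c2 with q | q
  · exact mem_sup_right (hY ⟨c1, mem_cent1.2 (mul_inv_eq_iff_eq_mul.1 q)⟩)
  refine (mul_mem_cancel_left mz).1 (mem_sup_right (hY ⟨mul_mem (self_mem_cent1 z) c1, mem_cent1.2
    (mul_inv_eq_iff_eq_mul.1 ?_)⟩))
  rw [show z * (u⁻¹ * c) * w * (z * (u⁻¹ * c))⁻¹ = z * (u⁻¹ * c * w * (u⁻¹ * c)⁻¹) * z⁻¹ by group, q, ← conj_inv, h.zw,
    inv_inv]

end HN

end Cfsg.Agent.CA
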